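import Mathlib
import Cfsg.Agent.F2Forms.Basic

/-!
The even-weight module of the symmetric group over the field with two elements, modulo the all-one
vector, as a quadratic space (`wt / 2` modulo 2) with explicit symplectic coordinates.
-/

set_option autoImplicit false

open Cfsg Finset
open CfsgLib.F2Forms

namespace CfsgLib.F2Forms.Even

/-- Coordinates: `M + 1` pairs. -/
abbrev Pt (M : ℕ) : Type := Option (Fin M) × Bool

/-- Vectors. -/
abbrev W (M : ℕ) : Type := Pt M → ZMod 2

variable {M : ℕ}

def dot (u v : W M) : ZMod 2 := ∑ p, u p * v p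

theorem dot_comm (u v : W M) : dot u v = dot v u := Finset.sum_congr rfl fun _ _ => mul_comm _ _
theorem dot_add_left (u u' v : W M) : dot (u + u') v = dot u v + dot u' v := by
  simp only [dot, ← Finset.sum_add_distrib, Pi.add_apply, add_mul]
theorem dot_smul_left (c : ZMod 2) (u v : W M) : dot (c • u) v = c * dot u v := by
  simp only [dot, Finset.mul_sum, Pi.smul_apply, smul_eq_mul, mul_assoc]
theorem dot_sum_left {ι : Type*} (s : Finset ι) (f : ι → W M) (v : W M) :
    dot (∑ i ∈ s, f i) v = ∑ i ∈ s, dot (f i) v := by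
  simp only [dot, Finset.sum_apply, Finset.sum_mul]; exact Finset.sum_comm
theorem dot_one_right (v : W M) : dot v 1 = ∑ p, v p := by simp [dot]

/-- Even weight. -/
def IsEven (v : W M) : Prop := ∑ p, v p = 0

theorem IsEven.add {u v : W M} (hu : IsEven u) (hv : IsEven v) : IsEven (u + v) := by
  simp only [IsEven, Pi.add_apply, Finset.sum_add_distrib] at hu hv ⊢
  rw [hu, hv, add_zero]

theorem IsEven.smul_one (s : ZMod 2) : IsEven (s • (1 : W M)) := by
  simp [IsEven, Fintype.card_prod, Fintype.card_option, mul_two]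
  exact Or.inl (add_self _)

/-- Weight as a natural number. -/
def wt (v : W M) : ℕ := ∑ p, (v p).val

theorem wt_cast (v : W M) : (wt v : ZMod 2) = ∑ p, v p := by
  simp [wt, ZMod.natCast_zmod_val]

theorem wt_even {v : W M} (hv : IsEven v) : 2 ∣ wt v := by
  rw [← CharP.cast_eq_zero_iff (ZMod 2) 2, wt_cast]; exact hv

theorem wt_add (u v : W M) : wt (u + v) + 2 * wt (fun p => u p * v p) = wt u + wt v := by
  have key : ∀ a b : ZMod 2, (a + b).val + 2 * (a * b).val = a.val + b.val := by decide
  simp only [wt, Finset.mul_sum, ← Finset.sum_add_distrib, Pi.add_apply]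
  exact Finset.sum_congr rfl fun p _ => key _ _

/-- Half the weight modulo 2. -/
def qw (v : W M) : ZMod 2 := ((wt v / 2 : ℕ) : ZMod 2)

theorem qw_add {u v : W M} (hu : IsEven u) (hv : IsEven v) : qw (u + v) = qw u + qw v + dot u v := by
  obtain ⟨a, ha⟩ := wt_even hu
  obtain ⟨b, hb⟩ := wt_even hv
  obtain ⟨c, hc⟩ := wt_even (hu.add hv)
  have h := wt_add u v
  have hd : dot u v = (wt (fun p => u p * v p) : ZMod 2) := (wt_cast _).symm
  have h3 : c + wt (fun p => u p * v p) = a + b := by omega
  have h4 := congrArg (fun n : ℕ => (n : ZMod 2)) h3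
  simp only [Nat.cast_add] at h4
  simp only [qw, hd, ha, hb, hc, Nat.mul_div_cancel_left _ (show 0 < 2 by norm_num)]
  linear_combination h4 - add_self (wt (fun p => u p * v p) : ZMod 2)

theorem wt_one : wt (1 : W M) = 2 * (M + 1) := by
  simp [wt, ZMod.val_one, Fintype.card_prod, Fintype.card_option]; ring

theorem qw_add_smul_one (hM : Odd M) {u : W M} (hu : IsEven u) (s : ZMod 2) : qw (u + s • 1) = qw u := by
  rw [qw_add hu (IsEven.smul_one s)]
  rcases eq_zero_or_one s with rfl | rfl
  · simp [qw, wt, dot]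
  · have h1 : qw (1 : W M) = 0 := by
      rw [qw, wt_one, Nat.mul_div_cancel_left _ (show 0 < 2 by norm_num), CharP.cast_eq_zero_iff (ZMod 2) 2, ← even_iff_two_dvd]
      exact hM.add_one
    rw [one_smul, h1, dot_one_right, show ∑ p, u p = 0 from hu]; simp

/-- The `i`-th pair. -/
def vecA (i : Fin M) : W M := fun p => if p.1 = some i then 1 else 0

/-- The `i`-th dual vector. -/
def vecG (i : Fin M) : W M := fun p =>
  match p with
  | (some j, b) => if j < i then 1 else if j = i ∧ b = true then 1 else 0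
  | (none, b) => if b then 0 else 1

theorem dot_vecA (i : Fin M) (w : W M) : dot (vecA i) w = w (some i, false) + w (some i, true) := by
  simp [dot, vecA, Fintype.sum_prod_type, Fintype.sum_option, add_comm]
  rw [Finset.sum_eq_single i]
  · simp [add_comm]
  · intro b _ hb; simp [hb]
  · simp

theorem dot_vecG (i : Fin M) (w : W M) :
    dot (vecG i) w = ∑ j, (if j < i then w (some j, false) + w (some j, true) else 0)
      + w (some i, true) + w (none, false) := by
  simp only [dot, Fintype.sum_prod_type, Fintype.sum_option, Fintype.sum_bool, vecG]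
  have h : ∀ j, (if j < i then (1 : ZMod 2) else if j = i ∧ True then 1 else 0) * w (some j, true) +
      (if j < i then (1 : ZMod 2) else if j = i ∧ false = true then 1 else 0) * w (some j, false) =
      (if j < i then w (some j, false) + w (some j, true) else 0) + (if j = i then w (some j, true) else 0) := by
    intro j
    by_cases h1 : j < i
    · simp [h1, h1.ne, add_comm]
    · by_cases h2 : j = i <;> simp [h1, h2]
  rw [Finset.sum_congr rfl fun j _ => h j, Finset.sum_add_distrib]
  simp [Finset.sum_ite_eq']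
  ring

theorem vecA_even (i : Fin M) : IsEven (vecA i) := by
  have := dot_vecA i (1 : W M)
  rw [dot_one_right] at this
  exact this.trans (add_self _)

theorem vecG_even (i : Fin M) : IsEven (vecG i) := by
  have := dot_vecG i (1 : W M)
  rw [dot_one_right] at this
  rw [IsEven, this]
  simp [add_self]

theorem dot_AA (i j : Fin M) : dot (vecA i) (vecA j) = 0 := by
  rw [dot_vecA]; exact add_self _

theorem dot_AG (i j : Fin M) : dot (vecA i) (vecG j) = if i = j then 1 else 0 := by
  rw [dot_vecA]
  rcases lt_trichotomy i j with h | h | h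
  · simp [vecG, h, h.ne, add_self]
  · simp [vecG, h]
  · simp [vecG, not_lt.2 h.le, h.ne']

theorem dot_GA (i j : Fin M) : dot (vecG i) (vecA j) = if i = j then 1 else 0 := by
  rw [dot_comm, dot_AG]; simp only [eq_comm]

theorem dot_GG (i j : Fin M) : dot (vecG i) (vecG j) = 0 := by
  have hpair : ∀ l, vecG j (some l, false) + vecG j (some l, true) = if l = j then 1 else 0 := fun l => by
    rw [← dot_vecA, dot_AG]
  rw [dot_vecG]
  simp only [hpair]
  rw [Finset.sum_eq_single j]
  · rcases lt_trichotomy i j with h | h | h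
    · simp [vecG, h, not_lt.2 h.le, add_self]
    · simp [vecG, h, add_self]
    · simp [vecG, h, not_lt.2 h.le, h.ne', add_self]
  · intro l _ hl; simp [hl]
  · simp

/-- Coordinates to vectors. -/
def toW : Sp M →ₗ[ZMod 2] W M where
  toFun v := ∑ i, (v (.inl i) • vecA i + v (.inr i) • vecG i)
  map_add' u v := by
    rw [← Finset.sum_add_distrib]
    exact Finset.sum_congr rfl fun i _ => by simp only [Pi.add_apply, add_smul]; abel
  map_smul' c v := by
    rw [Finset.smul_sum]
    exact Finset.sum_congr rfl fun i _ => by simp [smul_add, smul_smul]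

/-- Vectors to coordinates. -/
def toSp : W M →ₗ[ZMod 2] Sp M where
  toFun w := Sum.elim (fun i => dot (vecG i) w) (fun i => dot (vecA i) w)
  map_add' u v := by
    funext j; rcases j with i | i <;> simp [dot_comm _ (u + v), dot_add_left, dot_comm (M := M) u, dot_comm (M := M) v]
  map_smul' c v := by
    funext j; rcases j with i | i <;> simp [dot_comm _ (c • v), dot_smul_left, dot_comm (M := M) v]

theorem toW_even (v : Sp M) : IsEven (toW v) := by
  show ∑ p, toW v p = 0
  rw [← dot_one_right]
  show dot (∑ i, (v (.inl i) • vecA i + v (.inr i) • vecG i)) 1 = 0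
  rw [dot_sum_left]
  refine Finset.sum_eq_zero fun i _ => ?_
  rw [dot_add_left, dot_smul_left, dot_smul_left, dot_one_right, dot_one_right,
    show ∑ p, vecA i p = 0 from vecA_even i, show ∑ p, vecG i p = 0 from vecG_even i]
  simp

theorem toSp_toW (v : Sp M) : toSp (toW v) = v := by
  funext j
  rcases j with i | i
  · show dot (vecG i) (∑ l, (v (.inl l) • vecA l + v (.inr l) • vecG l)) = v (.inl i)
    rw [dot_comm]
    simp [dot_sum_left, dot_add_left, dot_smul_left, dot_AG, dot_GG, Finset.sum_ite_eq']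
  · show dot (vecA i) (∑ l, (v (.inl l) • vecA l + v (.inr l) • vecG l)) = v (.inr i)
    rw [dot_comm]
    simp [dot_sum_left, dot_add_left, dot_smul_left, dot_GA, dot_AA, Finset.sum_ite_eq']

theorem dot_toW (u v : Sp M) : dot (toW u) (toW v) = hb M u v := by
  show dot (∑ i, (u (.inl i) • vecA i + u (.inr i) • vecG i)) (toW v) = _
  simp only [dot_sum_left, dot_add_left, dot_smul_left]
  refine Finset.sum_congr rfl fun i _ => ?_
  have h1 : dot (vecA i) (toW v) = v (.inr i) := congrFun (toSp_toW v) (.inr i)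
  have h2 : dot (vecG i) (toW v) = v (.inl i) := congrFun (toSp_toW v) (.inl i)
  rw [h1, h2]

theorem toSp_one : toSp (1 : W M) = 0 := by
  funext j
  rcases j with i | i
  · show dot (vecG i) 1 = 0
    rw [dot_one_right]; exact vecG_even i
  · show dot (vecA i) 1 = 0
    rw [dot_one_right]; exact vecA_even i

theorem exists_eq_toW_add (w : W M) (hw : IsEven w) : ∃ s : ZMod 2, w = toW (toSp w) + s • 1 := by
  set d : W M := w + toW (toSp w) with hd
  have hde : IsEven d := hw.add (toW_even _)
  have hz : toSp d = 0 := by rw [hd, map_add, toSp_toW]; funext j; exact add_self _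
  have ha : ∀ i, d (some i, false) = d (some i, true) := by
    intro i
    have := congrFun hz (.inr i)
    change dot (vecA i) d = 0 at this
    rw [dot_vecA] at this
    linear_combination this - add_self (d (some i, true))
  have hg : ∀ i, d (some i, true) = d (none, false) := by
    intro i
    have := congrFun hz (.inl i)
    change dot (vecG i) d = 0 at this
    rw [dot_vecG] at this
    simp only [ha, add_self, ite_self, Finset.sum_const_zero, zero_add] at this
    linear_combination this - add_self (d (none, false))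
  have hn : d (none, true) = d (none, false) := by
    simp only [IsEven, Fintype.sum_prod_type, Fintype.sum_option, Fintype.sum_bool, ha, add_self,
      Finset.sum_const_zero, add_zero] at hde
    linear_combination hde - add_self (d (none, false))
  refine ⟨d (none, false), ?_⟩
  funext p
  have hp : d p = d (none, false) := by
    rcases p with ⟨_ | i, _ | _⟩
    · rfl
    · exact hn
    · rw [ha, hg]
    · exact hg i
  simp only [Pi.add_apply, Pi.smul_apply, Pi.one_apply, smul_eq_mul, mul_one, ← hp]
  simp only [hd, Pi.add_apply]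
  linear_combination -(add_self (toW (toSp w) p))

theorem toSp_add_smul_one (w : W M) (s : ZMod 2) : toSp (w + s • 1) = toSp w := by
  rw [map_add, map_smul, toSp_one, smul_zero, add_zero]

/-- The quadratic form on coordinates. -/
def qForm (M : ℕ) (v : Sp M) : ZMod 2 := qw (toW v)

theorem qForm_add (u v : Sp M) : qForm M (u + v) = qForm M u + qForm M v + hb M u v := by
  rw [qForm, qForm, qForm, map_add, qw_add (toW_even u) (toW_even v), dot_toW]

theorem qForm_toSp (hM : Odd M) (w : W M) (hw : IsEven w) : qForm M (toSp w) = qw w := by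
  obtain ⟨s, hs⟩ := exists_eq_toW_add w hw
  conv_rhs => rw [hs, qw_add_smul_one hM (toW_even _)]
  rfl

theorem qw_vecA (i : Fin M) : qw (vecA i) = 1 := by
  have : wt (vecA i) = 2 := by
    simp only [wt, Fintype.sum_prod_type, Fintype.sum_bool, Fintype.sum_option]
    simp [vecA, apply_ite ZMod.val, ZMod.val_one, Finset.sum_add_distrib]
  simp [qw, this]

theorem qw_vecG (i : Fin M) : qw (vecG i) = ((i.val + 1 : ℕ) : ZMod 2) := by
  have h : ∀ j, (vecG i (some j, true)).val + (vecG i (some j, false)).val =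
      (if j < i then 2 else 0) + (if j = i then 1 else 0) := by
    intro j
    rcases lt_trichotomy j i with h | h | h
    · simp [vecG, h, h.ne, ZMod.val_one]
    · simp [vecG, h, ZMod.val_one]
    · simp [vecG, not_lt.2 h.le, h.ne']
  have : wt (vecG i) = 2 * (i.val + 1) := by
    simp only [wt, Fintype.sum_prod_type, Fintype.sum_option, Fintype.sum_bool]
    rw [Finset.sum_congr rfl fun j _ => h j, Finset.sum_add_distrib, Finset.sum_ite_eq', if_pos (Finset.mem_univ i)]
    have hc : (Finset.univ.filter (· < i)).card = i.val := by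
      rw [show Finset.univ.filter (· < i) = Finset.Iio i by ext; simp, Fin.card_Iio]
    simp [Finset.sum_ite, hc, vecG, ZMod.val_one]
    ring
  simp [qw, this]

theorem exists_type (k : ℕ) :
    ∃ w : Sp (2 * k + 1), qForm (2 * k + 1) = form (2 * k + 1) w ∧
      quadFormPlus (2 * k + 1) (ZMod 2) w = ((k + 1 : ℕ) : ZMod 2) := by
  obtain ⟨w, hw, hv⟩ := eq_form_of_polar _ (qForm (2 * k + 1)) qForm_add
  refine ⟨w, hw, ?_⟩
  have hA : ∀ i, qForm (2 * k + 1) (Pi.single (.inl i) 1) = 1 := by
    intro i
    rw [qForm]; refine (congrArg qw ?_).trans (qw_vecA i)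
    simp [toW, Pi.single_apply, ite_smul, Finset.sum_ite_eq']
  have hG : ∀ i, qForm (2 * k + 1) (Pi.single (.inr i) 1) = ((i.val + 1 : ℕ) : ZMod 2) := by
    intro i
    rw [qForm]; refine (congrArg qw ?_).trans (qw_vecG i)
    simp [toW, Pi.single_apply, ite_smul, Finset.sum_ite_eq']
  simp only [quadFormPlus, (hv _).1, (hv _).2, hA, hG, mul_one]
  rw [Fin.sum_univ_eq_sum_range (fun i => ((i + 1 : ℕ) : ZMod 2))]
  clear hw hv hA hG w
  induction k with
  | zero => simp
  | succ k ih =>
    rw [show 2 * (k + 1) + 1 = 2 * k + 1 + 1 + 1 by ring, Finset.sum_range_succ, Finset.sum_range_succ, ih]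
    push_cast
    linear_combination (2 * (k : ZMod 2) + 2) * (CharTwo.two_eq_zero (R := ZMod 2))

/-- Permuting coordinates. -/
def permW (σ : Equiv.Perm (Pt M)) : W M →ₗ[ZMod 2] W M := LinearMap.funLeft (ZMod 2) (ZMod 2) σ.symm

theorem permW_even (σ : Equiv.Perm (Pt M)) {w : W M} (hw : IsEven w) : IsEven (permW σ w) :=
  (Equiv.sum_comp σ.symm w).trans hw

theorem qw_permW (σ : Equiv.Perm (Pt M)) (w : W M) : qw (permW σ w) = qw w := by
  have : wt (permW σ w) = wt w := Equiv.sum_comp σ.symm (fun p => (w p).val)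
  simp only [qw, this]

theorem permW_smul_one (σ : Equiv.Perm (Pt M)) (s : ZMod 2) : permW σ (s • (1 : W M)) = s • 1 := rfl

/-- The induced map on coordinates. -/
def act (σ : Equiv.Perm (Pt M)) : Module.End (ZMod 2) (Sp M) := toSp ∘ₗ permW σ ∘ₗ toW

theorem act_toSp (σ : Equiv.Perm (Pt M)) (w : W M) (hw : IsEven w) : act σ (toSp w) = toSp (permW σ w) := by
  obtain ⟨s, hs⟩ := exists_eq_toW_add w hw
  conv_rhs => rw [hs, map_add, permW_smul_one, toSp_add_smul_one]
  rfl

theorem act_one : act (1 : Equiv.Perm (Pt M)) = 1 := LinearMap.ext fun v => toSp_toW v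

theorem act_mul (σ τ : Equiv.Perm (Pt M)) : act (σ * τ) = act σ * act τ := by
  refine LinearMap.ext fun v => ?_
  show toSp (permW (σ * τ) (toW v)) = act σ (toSp (permW τ (toW v)))
  rw [act_toSp σ _ (permW_even τ (toW_even v))]
  rfl

/-- The action as a monoid hom. -/
def actHom (M : ℕ) : Equiv.Perm (Pt M) →* Module.End (ZMod 2) (Sp M) where
  toFun := act
  map_one' := act_one
  map_mul' := act_mul

theorem qForm_act (hM : Odd M) (σ : Equiv.Perm (Pt M)) (v : Sp M) : qForm M (act σ v) = qForm M v := by
  show qForm M (toSp (permW σ (toW v))) = _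
  rw [qForm_toSp hM _ (permW_even σ (toW_even v)), qw_permW]
  rfl

/-- The weight-two vector on two points. -/
def ed (p r : Pt M) : W M := Pi.single p 1 + Pi.single r 1

theorem ed_even (p r : Pt M) : IsEven (ed p r) := by
  simp [IsEven, ed, Finset.sum_add_distrib, Finset.sum_pi_single', add_self]

theorem permW_single (σ : Equiv.Perm (Pt M)) (p : Pt M) :
    permW σ (Pi.single p 1) = Pi.single (σ p) 1 := by
  funext x
  simp [permW, LinearMap.funLeft_apply, Pi.single_apply, Equiv.symm_apply_eq]

theorem act_ed (σ : Equiv.Perm (Pt M)) (p r : Pt M) : act σ (toSp (ed p r)) = toSp (ed (σ p) (σ r)) := by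
  rw [act_toSp σ _ (ed_even p r), ed, map_add, permW_single, permW_single]
  rfl

theorem ed_inj (hM : 3 ≤ M) {p r p' r' : Pt M} (hpr : p ≠ r) (h : toSp (ed p r) = toSp (ed p' r')) :
    ed p r = ed p' r' ∧ (p = p' ∨ p = r') ∧ (r = p' ∨ r = r') := by
  obtain ⟨s, hs⟩ := exists_eq_toW_add _ (ed_even p r)
  obtain ⟨s', hs'⟩ := exists_eq_toW_add _ (ed_even p' r')
  have hd : ed p r = ed p' r' + (s + s') • 1 := by
    rw [h] at hs
    rw [hs]
    conv_rhs => rw [hs']
    rw [add_assoc, ← add_smul, ← add_assoc, add_comm s', add_assoc, add_self, add_zero]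
  have he : ed p r = ed p' r' := by
    rcases eq_zero_or_one (s + s') with h0 | h0
    · simpa [h0] using hd
    · exfalso
      obtain ⟨x, hx⟩ : ∃ x : Pt M, x ∉ ({p, r, p', r'} : Finset (Pt M)) := by
        by_contra hc
        push Not at hc
        have h1 := Finset.card_le_card (s := (Finset.univ : Finset (Pt M))) (t := {p, r, p', r'}) fun x _ => hc x
        have h2 : ({p, r, p', r'} : Finset (Pt M)).card ≤ 4 := Finset.card_le_four
        simp [Fintype.card_prod, Fintype.card_option] at h1
        omega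
      simp only [Finset.mem_insert, Finset.mem_singleton, not_or] at hx
      have := congrFun hd x
      simp [h0, ed, hx.1, hx.2.1, hx.2.2.1, hx.2.2.2] at this
  refine ⟨he, ?_, ?_⟩
  · by_contra hc
    push Not at hc
    simpa [ed, hpr, hc.1, hc.2] using congrFun he p
  · by_contra hc
    push Not at hc
    simpa [ed, hpr.symm, hc.1, hc.2] using congrFun he r

theorem actHom_injective (hM : 3 ≤ M) : Function.Injective (actHom M) := by
  rw [injective_iff_map_eq_one]
  intro σ hσ
  refine Equiv.ext fun p => ?_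
  have key : ∀ r, p ≠ r → σ p = p ∨ σ p = r := by
    intro r hpr
    have h := act_ed σ p r
    have hid : act σ (toSp (ed p r)) = toSp (ed p r) := by
      show actHom M σ _ = _
      rw [hσ]; rfl
    exact (ed_inj hM (σ.injective.ne hpr) (h.symm.trans hid)).2.1
  obtain ⟨r, hr, t, ht, hrt⟩ : ∃ r, p ≠ r ∧ ∃ t, p ≠ t ∧ r ≠ t := by
    have h1 : 1 < (Finset.univ.erase p).card := by
      simp [Fintype.card_prod, Fintype.card_option]; omega
    obtain ⟨r, hr, t, ht, hrt⟩ := Finset.one_lt_card.1 h1
    exact ⟨r, (Finset.mem_erase.1 hr).1.symm, t, (Finset.mem_erase.1 ht).1.symm, hrt⟩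
  rcases key r hr with h | h
  · exact h
  rcases key t ht with h' | h'
  · exact h'
  exact absurd (h.symm.trans h') hrt

/-- Transport the action to the isometry group of a form isometric to `qForm`. -/
theorem exists_hom_isometry {ι : Type} [Fintype ι] [DecidableEq ι] (k : ℕ) (hk : 1 ≤ k)
    (Qt : (ι → ZMod 2) → ZMod 2) (g : Sp (2 * k + 1) ≃ₗ[ZMod 2] (ι → ZMod 2))
    (hg : ∀ v, qForm (2 * k + 1) v = Qt (g v)) :
    ∃ φ : Equiv.Perm (Pt (2 * k + 1)) →* ↥(isometryGroup (ZMod 2) Qt), Function.Injective φ ∧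
      ∀ σ v, ((φ σ : GL ι (ZMod 2)) : Matrix ι ι (ZMod 2)).mulVec (g v) = g (act σ v) := by
  let f : Equiv.Perm (Pt (2 * k + 1)) →* Matrix ι ι (ZMod 2) :=
    ((LinearMap.toMatrixAlgEquiv' : _ ≃ₐ[ZMod 2] Matrix ι ι (ZMod 2)).toRingEquiv.toMonoidHom.comp
      (g.conjAlgEquiv (ZMod 2)).toRingEquiv.toMonoidHom).comp (actHom (2 * k + 1))
  have hf : ∀ σ x, (f σ).mulVec x = g (act σ (g.symm x)) := by
    intro σ x
    show (LinearMap.toMatrixAlgEquiv' (g.conj (act σ))).mulVec x = _
    rw [← Matrix.toLinAlgEquiv'_apply, Matrix.toLinAlgEquiv'_toMatrixAlgEquiv']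
    rfl
  have hmem : ∀ σ, f.toHomUnits σ ∈ isometryGroup (ZMod 2) Qt := by
    intro σ u v
    show Qt ((f σ).mulVec u) = Qt u
    rw [hf, ← hg, qForm_act (odd_two_mul_add_one k), hg, LinearEquiv.apply_symm_apply]
  refine ⟨f.toHomUnits.codRestrict _ hmem, ?_, fun σ v => ?_⟩
  · intro a b hab
    refine actHom_injective (by omega) (LinearMap.ext fun v => g.injective ?_)
    have h2 : f a = f b := congrArg (fun u : GL ι (ZMod 2) => (u : Matrix ι ι (ZMod 2))) (congrArg Subtype.val hab)
    have h3 := hf a (g v)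
    rw [h2, hf b, LinearEquiv.symm_apply_apply] at h3
    exact h3.symm
  · show (f σ).mulVec (g v) = _
    rw [hf, LinearEquiv.symm_apply_apply]

/-- For `M = 3` every isometry comes from a permutation. -/
theorem exists_perm_of_isometry (h : Sp 3 ≃ₗ[ZMod 2] Sp 3) (hh : ∀ v, qForm 3 (h v) = qForm 3 v) :
    ∃ σ : Equiv.Perm (Pt 3), ∀ v, act σ v = h v := by
  classical
  have hB : ∀ u v, hb 3 (h u) (h v) = hb 3 u v := by
    intro u v
    have h1 := qForm_add (M := 3) (h u) (h v)
    rw [← map_add, hh, hh, hh, qForm_add] at h1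
    exact (add_left_cancel h1).symm
  have hM : Odd 3 := by decide
  have hBd : ∀ p r s t : Pt 3, hb 3 (toSp (ed p r)) (toSp (ed s t)) = ed p r s + ed p r t := by
    intro p r s t
    obtain ⟨a, ha⟩ := exists_eq_toW_add _ (ed_even p r)
    obtain ⟨b, hb'⟩ := exists_eq_toW_add _ (ed_even s t)
    have h1 : dot (ed p r) (ed s t) = ed p r s + ed p r t := by
      simp [dot, ed, mul_add, Finset.sum_add_distrib, Pi.single_apply]
    rw [← h1]
    conv_rhs => rw [ha, dot_add_left, dot_smul_left, dot_comm 1 (ed s t), dot_one_right,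
      show ∑ x, ed s t x = 0 from ed_even s t, mul_zero, add_zero, dot_comm, hb', dot_add_left, dot_smul_left,
      dot_comm 1, dot_one_right, show ∑ x, toW (toSp (ed p r)) x = 0 from toW_even _, mul_zero, add_zero]
    rw [dot_toW, hb_comm]
  have hedge : ∀ v, qForm 3 v = 1 → ∃ p r, p ≠ r ∧ v = toSp (ed p r) := by
    intro v hv
    have two : ∀ w : W 3, IsEven w → wt w = 2 → toSp w = v → ∃ p r, p ≠ r ∧ v = toSp (ed p r) := by
      intro w hw h2 hwv
      have hc : (Finset.univ.filter fun p => w p = 1).card = 2 := by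
        refine Eq.trans ?_ h2
        rw [wt, Finset.card_filter]
        refine Finset.sum_congr rfl fun p _ => ?_
        rcases eq_zero_or_one (w p) with h | h <;> simp [h, ZMod.val_one]
      obtain ⟨p, r, hpr, hset⟩ := Finset.card_eq_two.1 hc
      refine ⟨p, r, hpr, hwv ▸ congrArg toSp (funext fun x => ?_)⟩
      have hx := Finset.ext_iff.1 hset x
      simp only [Finset.mem_filter, Finset.mem_univ, true_and, Finset.mem_insert, Finset.mem_singleton] at hx
      rcases eq_zero_or_one (w x) with h | h
      · simp [h] at hx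
        simp [h, ed, hx.1, hx.2]
      · rcases hx.1 h with rfl | rfl <;> simp [h, ed, hpr, hpr.symm]
    obtain ⟨c, hc⟩ := wt_even (toW_even v)
    have hle : wt (toW v) ≤ 8 := by
      refine (Finset.sum_le_card_nsmul _ _ 1 fun p _ => Nat.le_of_lt_succ (ZMod.val_lt _)).trans ?_
      simp [Fintype.card_prod, Fintype.card_option]
    rw [qForm, qw, hc, Nat.mul_div_cancel_left _ (show 0 < 2 by norm_num)] at hv
    have hcase : c = 1 ∨ c = 3 := by
      have : c ≤ 4 := by omega
      interval_cases c <;> first | (left; rfl) | (right; rfl) | exact absurd hv (by decide)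
    rcases hcase with rfl | rfl
    · exact two _ (toW_even v) hc (toSp_toW v)
    · refine two (toW v + (1 : ZMod 2) • 1) ((toW_even v).add (IsEven.smul_one 1)) ?_ (by rw [toSp_add_smul_one, toSp_toW])
      have h1 : wt (toW v + 1) + 2 * wt (toW v) = wt (toW v) + wt (1 : W 3) := by
        have h := wt_add (toW v) (1 : W 3)
        simp only [Pi.one_apply, mul_one] at h
        exact h
      rw [wt_one] at h1
      rw [one_smul]
      omega
  have hq1 : ∀ p r : Pt 3, p ≠ r → qForm 3 (h (toSp (ed p r))) = 1 := by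
    intro p r hpr
    rw [hh, qForm_toSp hM _ (ed_even p r)]
    have : wt (ed p r) = 2 := by
      rw [wt, Finset.sum_eq_add p r hpr]
      · simp [ed, hpr, hpr.symm, ZMod.val_one]
      · intro x _ hx; simp [ed, hx.1, hx.2]
      · simp
      · simp
    simp [qw, this]
  choose! fp fr hne heq using fun (e : Pt 3 × Pt 3) (he : e.1 ≠ e.2) => hedge _ (hq1 e.1 e.2 he)
  have heq' : ∀ p r : Pt 3, p ≠ r → h (toSp (ed p r)) = toSp (ed (fp (p, r)) (fr (p, r))) := fun p r h0 => heq (p, r) h0
  have hne' : ∀ p r : Pt 3, p ≠ r → fp (p, r) ≠ fr (p, r) := fun p r h0 => hne (p, r) h0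
  let f : Pt 3 → Pt 3 → Finset (Pt 3) := fun p r => {fp (p, r), fr (p, r)}
  have hB' : ∀ p r s t : Pt 3, p ≠ r → s ≠ t →
      ed (fp (p, r)) (fr (p, r)) (fp (s, t)) + ed (fp (p, r)) (fr (p, r)) (fr (s, t)) = ed p r s + ed p r t := by
    intro p r s t hpr hst
    rw [← hBd, ← heq' _ _ hpr, ← heq' _ _ hst, hB, hBd]
  have edv : ∀ p r x : Pt 3, p ≠ r → ed p r x = if x ∈ ({p, r} : Finset (Pt 3)) then 1 else 0 := by
    intro p r x hpr
    by_cases h1 : x = p
    · subst h1; simp [ed, hpr]
    · by_cases h2 : x = r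
      · subst h2; simp [ed, h1]
      · simp [ed, h1, h2]
  -- adjacency: images of edges with one common point have one common point
  have hone : ∀ p r t : Pt 3, p ≠ r → p ≠ t → r ≠ t →
      (fp (p, t) ∈ f p r ↔ fr (p, t) ∉ f p r) := by
    intro p r t hpr hpt hrt
    have := hB' p r p t hpr hpt
    rw [edv _ _ _ (hne' _ _ hpr), edv _ _ _ (hne' _ _ hpr), edv _ _ _ hpr, edv _ _ _ hpr] at this
    rw [if_pos (Finset.mem_insert_self _ _), if_neg (show t ∉ ({p, r} : Finset (Pt 3)) by simp [hpt.symm, hrt.symm]),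
      add_zero] at this
    by_cases h1 : fp (p, t) ∈ f p r <;> by_cases h2 : fr (p, t) ∈ f p r
    · rw [if_pos h1, if_pos h2] at this; exact absurd this (by decide)
    · exact iff_of_true h1 h2
    · exact iff_of_false h1 (not_not.2 h2)
    · rw [if_neg h1, if_neg h2] at this; exact absurd this (by decide)
  have hinjf : ∀ p r s t : Pt 3, p ≠ r → s ≠ t → f p r = f s t → (p = s ∨ p = t) ∧ (r = s ∨ r = t) := by
    intro p r s t hpr hst hf'
    have h1 : h (toSp (ed p r)) = h (toSp (ed s t)) := by
      rw [heq' _ _ hpr, heq' _ _ hst]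
      congr 1
      funext x
      rw [edv _ _ _ (hne' _ _ hpr), edv _ _ _ (hne' _ _ hst)]
      exact if_congr (by change x ∈ f p r ↔ x ∈ f s t; rw [hf']) rfl rfl
    exact (ed_inj (le_refl 3) hpr (h.injective h1)).2
  have hstar : ∀ p, ∃ a, ∀ r, p ≠ r → a ∈ f p r := by
    intro p
    have hc7 : (Finset.univ.erase p : Finset (Pt 3)).card = 7 := by simp [Fintype.card_prod, Fintype.card_option]
    obtain ⟨r, hr⟩ := Finset.card_pos.1 (by rw [hc7]; norm_num : 0 < (Finset.univ.erase p : Finset (Pt 3)).card)
    obtain ⟨t, ht⟩ := Finset.card_pos.1 (by rw [Finset.card_erase_of_mem hr, hc7]; norm_num :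
      0 < ((Finset.univ.erase p : Finset (Pt 3)).erase r).card)
    have hrp := (Finset.mem_erase.1 hr).1.symm
    have hpt := (Finset.mem_erase.1 (Finset.mem_erase.1 ht).2).1.symm
    have hrt := (Finset.mem_erase.1 ht).1.symm
    have pair : ∀ x y, p ≠ x → p ≠ y → x ≠ y → ∃! a, a ∈ f p x ∧ a ∈ f p y := by
      intro x y hx hy hxy
      have h1 := hone p x y hx hy hxy
      by_cases h2 : fp (p, y) ∈ f p x
      · refine ⟨_, ⟨h2, Finset.mem_insert_self _ _⟩, fun a ha => ?_⟩
        rcases Finset.mem_insert.1 ha.2 with rfl | h3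
        · rfl
        · rw [Finset.mem_singleton.1 h3] at ha; exact absurd ha.1 (h1.1 h2)
      · have h4 : fr (p, y) ∈ f p x := by by_contra h4; exact h2 (h1.2 h4)
        refine ⟨_, ⟨h4, by simp [f]⟩, fun a ha => ?_⟩
        rcases Finset.mem_insert.1 ha.2 with rfl | h3
        · exact absurd ha.1 h2
        · exact Finset.mem_singleton.1 h3
    obtain ⟨a, ⟨ha1, ha2⟩, hau⟩ := pair r t hrp hpt hrt
    have two : ∀ x, p ≠ x → ∀ b c d, b ∈ f p x → c ∈ f p x → d ∈ f p x → b = c ∨ b = d ∨ c = d := by
      intro x _ b c d hb hc hd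
      simp only [f, Finset.mem_insert, Finset.mem_singleton] at hb hc hd
      rcases hb with rfl | rfl <;> rcases hc with rfl | rfl <;> rcases hd with rfl | rfl <;> simp
    have other : ∀ x, p ≠ x → a ∉ f p x → ∃ b c, b ≠ c ∧ b ∈ f p r ∧ c ∈ f p t ∧ f p x = {b, c} ∧ b ≠ a ∧ c ≠ a := by
      intro x hx hax
      have hxr : x ≠ r := by rintro rfl; exact hax ha1
      have hxt : x ≠ t := by rintro rfl; exact hax ha2
      obtain ⟨b, ⟨hb1, hb2⟩, -⟩ := pair x r hx hrp hxr
      obtain ⟨c, ⟨hc1, hc2⟩, -⟩ := pair x t hx hpt hxt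
      have hba : b ≠ a := by rintro rfl; exact hax hb1
      have hca : c ≠ a := by rintro rfl; exact hax hc1
      have hbc : b ≠ c := by rintro rfl; exact hba (hau _ ⟨hb2, hc2⟩)
      refine ⟨b, c, hbc, hb2, hc2, ?_, hba, hca⟩
      ext z
      constructor
      · intro hz
        rcases two x hx z b c hz hb1 hc1 with h | h | h
        · simp [h]
        · simp [h]
        · exact absurd h hbc
      · intro hz
        rcases Finset.mem_insert.1 hz with rfl | hz
        · exact hb1
        · rw [Finset.mem_singleton.1 hz]; exact hc1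
    refine ⟨a, fun x hx => ?_⟩
    by_contra hax
    obtain ⟨b, c, hbc, hb, hc, hfx, hba, hca⟩ := other x hx hax
    obtain ⟨y, hy⟩ := Finset.card_pos.1 (by
      have : ({r, t, x} : Finset (Pt 3)).card ≤ 3 := Finset.card_le_three
      have := Finset.le_card_sdiff ({r, t, x} : Finset (Pt 3)) (Finset.univ.erase p)
      omega : 0 < ((Finset.univ.erase p) \ {r, t, x} : Finset (Pt 3)).card)
    simp only [Finset.mem_sdiff, Finset.mem_erase, Finset.mem_insert, Finset.mem_singleton, not_or] at hy
    have hpy : p ≠ y := hy.1.1.symm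
    by_cases hay : a ∈ f p y
    · obtain ⟨e, ⟨he1, he2⟩, -⟩ := pair x y hx hpy (Ne.symm hy.2.2.2)
      rw [hfx, Finset.mem_insert, Finset.mem_singleton] at he1
      rcases he1 with rfl | rfl
      · exact hba ((pair r y hrp hpy (Ne.symm hy.2.1)).unique ⟨hb, he2⟩ ⟨ha1, hay⟩)
      · exact hca ((pair t y hpt hpy (Ne.symm hy.2.2.1)).unique ⟨hc, he2⟩ ⟨ha2, hay⟩)
    · obtain ⟨b', c', hbc', hb', hc', hfy, hba', hca'⟩ := other y hpy hay
      have eb : b = b' := by
        rcases two r hrp a b b' ha1 hb hb' with h | h | h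
        · exact absurd h.symm hba
        · exact absurd h.symm hba'
        · exact h
      have ec : c = c' := by
        rcases two t hpt a c c' ha2 hc hc' with h | h | h
        · exact absurd h.symm hca
        · exact absurd h.symm hca'
        · exact h
      have := hinjf p x p y hx hpy (by rw [hfx, hfy, eb, ec])
      rcases this.2 with h | h
      · exact hx h.symm
      · exact hy.2.2.2 h.symm
  choose σ hσ using hstar
  have hfsymm : ∀ p r, p ≠ r → f p r = f r p := by
    intro p r hpr
    have h1 : toSp (ed (fp (p, r)) (fr (p, r))) = toSp (ed (fp (r, p)) (fr (r, p))) := by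
      rw [← heq' _ _ hpr, ← heq' _ _ hpr.symm]; congr 2; exact add_comm _ _
    have h2 := congrFun (ed_inj (le_refl 3) (hne' _ _ hpr) h1).1
    ext x
    have h3 := h2 x
    rw [edv _ _ _ (hne' _ _ hpr), edv _ _ _ (hne' _ _ hpr.symm)] at h3
    show x ∈ ({fp (p, r), fr (p, r)} : Finset (Pt 3)) ↔ x ∈ ({fp (r, p), fr (r, p)} : Finset (Pt 3))
    by_cases a1 : x ∈ ({fp (p, r), fr (p, r)} : Finset (Pt 3)) <;>
      by_cases a2 : x ∈ ({fp (r, p), fr (r, p)} : Finset (Pt 3))
    · exact iff_of_true a1 a2
    · rw [if_pos a1, if_neg a2] at h3; exact absurd h3 (by decide)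
    · rw [if_neg a1, if_pos a2] at h3; exact absurd h3 (by decide)
    · exact iff_of_false a1 a2
  have hinj : Function.Injective σ := by
    intro p p' hpp
    by_contra hpn
    have h6 : ((Finset.univ.erase p).erase p' : Finset (Pt 3)).card = 6 := by
      rw [Finset.card_erase_of_mem (Finset.mem_erase.2 ⟨Ne.symm hpn, Finset.mem_univ p'⟩),
        Finset.card_erase_of_mem (Finset.mem_univ p), Finset.card_univ]
      rfl
    obtain ⟨r, hr⟩ := Finset.card_pos.1 (by rw [h6]; norm_num : 0 < ((Finset.univ.erase p).erase p' : Finset (Pt 3)).card)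
    obtain ⟨r', hr'⟩ := Finset.card_pos.1 (by
      rw [Finset.card_erase_of_mem hr, h6]; norm_num : 0 < (((Finset.univ.erase p).erase p').erase r : Finset (Pt 3)).card)
    simp only [Finset.mem_erase, Finset.mem_univ, and_true] at hr hr'
    obtain ⟨hrp', hrp⟩ := hr
    obtain ⟨hr'r, hr'p', hr'p⟩ := hr'
    have h1 := hσ p r hrp.symm
    have h2 := hσ p' r' hr'p'.symm
    rw [← hpp] at h2
    have hB2 := hB' p r p' r' hrp.symm hr'p'.symm
    rw [edv _ _ _ (hne' _ _ hrp.symm), edv _ _ _ (hne' _ _ hrp.symm), edv _ _ _ hrp.symm, edv _ _ _ hrp.symm] at hB2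
    simp only [Finset.mem_insert, Finset.mem_singleton] at hB2
    simp [hr'p, hr'r, Ne.symm hpn, Ne.symm hrp'] at hB2
    change σ p ∈ ({fp (p, r), fr (p, r)} : Finset (Pt 3)) at h1
    change σ p ∈ ({fp (p', r'), fr (p', r')} : Finset (Pt 3)) at h2
    simp only [Finset.mem_insert, Finset.mem_singleton] at h1 h2
    have n1 := hne' _ _ hrp.symm
    have n2 := hne' _ _ hr'p'.symm
    by_cases a1 : fp (p', r') = fp (p, r) ∨ fp (p', r') = fr (p, r) <;>
      by_cases a2 : fr (p', r') = fp (p, r) ∨ fr (p', r') = fr (p, r)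
    · have : f p r = f p' r' := by
        simp only [f]
        rcases a1 with a | a <;> rcases a2 with b | b
        · exact absurd (a.trans b.symm) n2
        · rw [a, b]
        · rw [a, b, Finset.pair_comm]
        · exact absurd (a.trans b.symm) n2
      rcases (hinjf p r p' r' hrp.symm hr'p'.symm this).1 with h | h
      · exact hpn h
      · exact hr'p h.symm
    · simp [a1, a2] at hB2
    · simp [a1, a2] at hB2
    · rcases h2 with h | h
      · exact a1 (h ▸ h1)
      · exact a2 (h ▸ h1)
  refine ⟨Equiv.ofBijective σ (Finite.injective_iff_bijective.1 hinj), ?_⟩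
  have hgen : ∀ p r, act (Equiv.ofBijective σ (Finite.injective_iff_bijective.1 hinj)) (toSp (ed p r)) = h (toSp (ed p r)) := by
    intro p r
    by_cases hpr : p = r
    · subst hpr
      have : ed p p = 0 := funext fun x => add_self _
      simp [this]
    · rw [act_ed, Equiv.ofBijective_apply, Equiv.ofBijective_apply, heq' _ _ hpr]
      congr 1
      funext x
      rw [edv _ _ _ (hne' _ _ hpr), edv _ _ _ (hinj.ne hpr)]
      refine if_congr ?_ rfl rfl
      have h1 := hσ p r hpr
      have h2 := hσ r p (Ne.symm hpr)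
      rw [← hfsymm p r hpr] at h2
      have : ({σ p, σ r} : Finset (Pt 3)) = f p r := by
        refine Finset.eq_of_subset_of_card_le (Finset.insert_subset h1 (Finset.singleton_subset_iff.2 h2)) ?_
        simp [f, Finset.card_pair (hne' _ _ hpr), Finset.card_pair (hinj.ne hpr)]
      rw [this]
  intro v
  have hv : toW v = ∑ p, (toW v p) • ed p (none, true) := by
    have he : ∑ p, toW v p = 0 := toW_even v
    funext x
    simp [ed, Finset.sum_add_distrib, ← Finset.sum_mul, he, Pi.single_apply, mul_add, Finset.sum_ite_eq]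
  rw [← toSp_toW v, hv]
  simp only [map_sum, map_smul, hgen]

end CfsgLib.F2Forms.Even
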